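import Cfsg.Agent.H2.BG12d

/-! Translations between the frozen vocabulary and the working one. -/

namespace CfsgH2
open Subgroup Function Cfsg CfsgBG
open scoped commutatorElement

variable {G : Type*} [Group G] {A B E H K L M P Q X Y : Subgroup G} {p q k : ℕ} {π : Set ℕ}
  [Finite G]

theorem core_pnd (A X : Subgroup G) : O[primesNotDvd o[A], X] = O[pr[A]ᶜ, X] :=
  piCoreOf_congr fun _ h => ⟨fun a => a.2, fun a => ⟨h, a⟩⟩

theorem mi_iff [Fact q.Prime] : Q ∈ maxInvSubgroups ⊤ A {q} ↔ MI q A Q :=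
  ⟨fun h => ⟨isPGroup_iff_piN.2 h.1.2.1, h.1.2.2, fun R a b =>
    h.2 R ⟨le_top, isPGroup_iff_piN.1 a, b⟩⟩, fun h => ⟨⟨le_top, isPGroup_iff_piN.1 h.pg, h.n⟩,
    fun R a => h.max R (isPGroup_iff_piN.2 a.2.1) a.2.2⟩⟩

theorem tr_iff [Fact q.Prime] : (∀ Q₁ ∈ maxInvSubgroups ⊤ A {q}, ∀ Q₂ ∈ maxInvSubgroups ⊤ A {q},
    ∃ k ∈ K, Q₂ = Q₁.map (MulAut.conj k).toMonoidHom) ↔ Tr q K A :=
  ⟨fun h Q₁ Q₂ a b => (h Q₁ (mi_iff.2 a) Q₂ (mi_iff.2 b)).imp fun _ c => ⟨c.1, c.2.symm⟩,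
    fun h Q₁ a Q₂ b => (h Q₁ Q₂ (mi_iff.1 a) (mi_iff.1 b)).imp fun _ c => ⟨c.1, c.2.symm⟩⟩

theorem ncon_iff : TransitivityHypothesis A ↔ NCon pr[A] A := by
  refine ⟨fun h => ⟨h.1, PiN.self, h.2.1, fun X Y a b c d e => ?_⟩, fun h =>
    ⟨h.ne, h.lt, fun X a b => ?_⟩⟩
  · rw [← core_pnd, ← h.2.2 X a b]
    exact le_sSup ⟨c, fun r i j => ⟨i, e r i j⟩, d⟩
  · rw [core_pnd]
    exact le_antisymm (sSup_le fun Y c => h.le X Y a b c.1 c.2.2 fun r i j => (c.2.1 r i j).2)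
      (le_sSup ⟨piCoreOf_le, fun r i j => ⟨i, piN_piCoreOf r i j⟩, b.trans le_norm_piCoreOf⟩)

theorem NCon.congr {ρ : Set ℕ} (h : NCon π A) (e : ∀ r, r.Prime → (r ∈ π ↔ r ∈ ρ)) : NCon ρ A :=
  ⟨h.ne, h.pi.mono' fun r a => (e r a).1, h.lt, fun X Y a b c d f => by
    rw [← piCoreOf_congr (π := πᶜ) (ρ := ρᶜ) fun r i => not_congr (e r i)]
    exact h.le X Y a b c d (f.mono' fun r i j l => j ((e r i).1 l))⟩

theorem lt_rk (h : ¬ RankLE k H) : k + 1 ≤ rk H := by rw [rankLE_iff] at h; omega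
theorem lt_prk [Fact p.Prime] (h : ¬ PRankLE p k H) : k + 1 ≤ prk p H := by
  rw [prankLE_iff] at h; omega

omit [Finite G] in
theorem mu_iff (hM : IsCoatom M) : (X ≤ M ∧ ∀ L, IsCoatom L → X ≤ L → L = M) ↔ Mu X M :=
  ⟨fun h => ⟨hM, h.1, h.2⟩, fun h => ⟨h.le, h.eq⟩⟩

omit [Finite G] in
theorem complIn_sup (h : IsComplIn A B M) : A ⊔ B = M := le_antisymm (sup_le h.1 h.2.1)
  fun m hm => by obtain ⟨a, i, b, j, rfl⟩ := h.2.2.2 m hm; exact mul_mem_sup i j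

theorem hall_of_complIn [MS G] (hM : IsCoatom M) (h : IsComplIn E Ms[M] M) : Hall σ[M]ᶜ E M := by
  have e := card_sup_of_disj (.inl (h.1.trans le_norm_piCoreOf)) h.2.2.1
  rw [complIn_sup h, ← card_mul_relIndex h.2.1, mul_comm] at e
  exact Hall.of_compl h.1 (Nat.eq_of_mul_eq_mul_right (card_pos' _) e ▸ (Ms_hall hM).pi')
    (by rw [compl_compl]; exact piN_piCoreOf) (.inl (h.1.trans le_norm_piCoreOf)) (complIn_sup h)

end CfsgH2
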