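import Cfsg.Agent.H9.PFb
import Cfsg.Agent.H3.PF11b

/-! Peterfalvi (13.11)-(13.15), from (13.10). -/

set_option autoImplicit false
set_option linter.unusedSectionVars false
open Subgroup Cfsg CfsgH3 CfsgH2 Function MulAction
open scoped commutatorElement

namespace CfsgPF

/-- The constant of (13.10). -/
noncomputable def mm (p q : ℕ) : ℝ :=
  1 - 1 / (q - 1) - (q - 1) / q ^ p + 1 / ((q - 1) * q ^ p)

theorem mm_eq {p q : ℕ} (hq : 3 ≤ q) : mm p q = (q - 2) / (q - 1) * (1 - q / q ^ p) := by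
  have h3 : (3 : ℝ) ≤ q := by exact_mod_cast hq
  have h1 : (q - 1 : ℝ) ≠ 0 := by linarith [h3] |> fun h : (0 : ℝ) < q - 1 => h.ne'
  have h2 : (q : ℝ) ^ p ≠ 0 := by positivity
  unfold mm; field_simp; ring

theorem mm_ge {p q k : ℕ} (hq : 3 ≤ q) (hp : k + 1 ≤ p) :
    (q - 2) / (q - 1) * (1 - 1 / q ^ k) ≤ mm p q := by
  have h3 : (3 : ℝ) ≤ q := by exact_mod_cast hq
  rw [mm_eq hq]
  refine mul_le_mul_of_nonneg_left ?_ (div_nonneg (by linarith) (by linarith))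
  have : (q : ℝ) / q ^ p ≤ 1 / q ^ k := by
    rw [div_le_div_iff₀ (by positivity) (by positivity), one_mul, ← pow_succ']
    exact pow_le_pow_right₀ (by linarith) hp
  linarith

theorem mm_ge5 {p q : ℕ} (hq : 5 ≤ q) (hp : 3 ≤ p) : (q - 2) * (q + 1) ≤ mm p q * q ^ 2 := by
  have h3 : (5 : ℝ) ≤ q := by exact_mod_cast hq
  have := mm_ge (k := 2) (by omega : 3 ≤ q) hp
  have h1 : (q - 1 : ℝ) ≠ 0 := by linarith [h3] |> fun h : (0 : ℝ) < q - 1 => h.ne'
  have e : ((q : ℝ) - 2) / (q - 1) * (1 - 1 / q ^ 2) * q ^ 2 = (q - 2) * (q + 1) := by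
    field_simp; ring
  rw [← e]; gcongr

theorem mm_ge3 {p : ℕ} (hp : 5 ≤ p) : 40 / 81 ≤ mm p 3 := by
  have := mm_ge (k := 4) (le_refl 3) hp
  norm_num at this ⊢
  linarith

theorem sq_lt_three_pow {p : ℕ} (hp : 4 ≤ p) : 3 * p ^ 2 < 3 ^ p := by
  induction p, hp using Nat.le_induction with
  | base => norm_num
  | succ n hn ih => rw [pow_succ 3]; nlinarith

theorem mm_gt3 {p : ℕ} (hp : 5 ≤ p) : (p : ℝ) ^ 2 - 1 < 2 * (mm p 3 * p ^ 2) := by
  rw [mm_eq le_rfl]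
  have h1 : (3 : ℝ) * p ^ 2 < 3 ^ p := by exact_mod_cast sq_lt_three_pow (p := p) (by omega)
  have h2 : (3 : ℝ) * p ^ 2 / 3 ^ p < 1 := (div_lt_one (by positivity)).2 h1
  have e : (3 : ℝ) * p ^ 2 / 3 ^ p = 3 / 3 ^ p * p ^ 2 := by ring
  push_cast
  nlinarith

theorem odd_prime_cases {p q : ℕ} (hp : p.Prime) (hq : q.Prime) (op : Odd p) (oq : Odd q)
    (h : p ≠ q) : 3 ≤ p ∧ 3 ≤ q ∧ (5 ≤ q ∨ (q = 3 ∧ 5 ≤ p)) := by
  have := hp.two_le
  have := hq.two_le
  obtain ⟨a, rfl⟩ := op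
  obtain ⟨b, rfl⟩ := oq
  omega

theorem key_arith {p q u x : ℕ} (hp : p.Prime) (hq : q.Prime) (op : Odd p) (oq : Odd q)
    (h : p ≠ q) (hx : 2 * q + 1 ≤ x) (h1 : mm p q * p ^ (q - 1) * x < u * q)
    (h2 : u * (p - 1) ≤ p ^ q - 1) : q = 3 ∧ (p = 5 ∨ p = 7) ∧ x = 7 := by
  obtain ⟨p3, q3, hc⟩ := odd_prime_cases hp hq op oq h
  have p3' : (3 : ℝ) ≤ p := by exact_mod_cast p3
  have hx' : (2 * q + 1 : ℝ) ≤ x := by exact_mod_cast hx
  have h3 : (u : ℝ) * (p - 1) < p * p ^ (q - 1) := by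
    have e1 : u * (p - 1) < p * p ^ (q - 1) := by
      rw [← pow_succ', Nat.sub_add_cancel (by omega)]
      exact h2.trans_lt (Nat.sub_lt (by positivity) one_pos)
    have e2 : ((u * (p - 1) : ℕ) : ℝ) < (p * p ^ (q - 1) : ℕ) := by exact_mod_cast e1
    rw [Nat.cast_mul, Nat.cast_sub (by omega)] at e2
    simpa using e2
  have h4 : mm p q * x * (p - 1) < q * p := by
    have q0 : (0 : ℝ) < q := by positivity
    refine lt_of_mul_lt_mul_right (a := (p : ℝ) ^ (q - 1)) ?_ (by positivity)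
    calc _ = mm p q * p ^ (q - 1) * x * (p - 1) := by ring
      _ < u * q * (p - 1) := by gcongr; linarith
      _ = q * (u * (p - 1)) := by ring
      _ < q * (p * p ^ (q - 1)) := by gcongr
      _ = _ := by ring
  rcases hc with q5 | ⟨rfl, p5⟩
  · exfalso
    have q5' : (5 : ℝ) ≤ q := by exact_mod_cast q5
    have h5 := mm_ge5 q5 p3
    have h6 : (q - 2) * (q + 1) * ((2 * q + 1) * (p - 1)) ≤ mm p q * q ^ 2 * (x * (p - 1)) := by
      gcongr
      · exact mul_nonneg (by linarith) (by linarith)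
      · exact le_trans (mul_nonneg (by linarith) (by linarith)) h5
      · linarith
    have h7 : mm p q * q ^ 2 * (x * (p - 1)) < q ^ 2 * (q * p) := by
      calc _ = q ^ 2 * (mm p q * x * (p - 1)) := by ring
        _ < _ := by gcongr
    have h8 : (q : ℝ) ^ 2 * (q * p) ≤ q ^ 3 * (3 / 2 * (p - 1)) := by
      calc _ = (q : ℝ) ^ 3 * p := by ring
        _ ≤ _ := by gcongr; linarith
    have h9 : ((q : ℝ) - 2) * (q + 1) * (2 * q + 1) < 3 / 2 * q ^ 3 :=
      lt_of_mul_lt_mul_right (a := (p : ℝ) - 1) (by nlinarith) (by linarith)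
    nlinarith [mul_nonneg (sub_nonneg.2 q5') (sq_nonneg (q : ℝ)), mul_nonneg (sub_nonneg.2 q5') (sub_nonneg.2 q5')]
  · have p5' : (5 : ℝ) ≤ p := by exact_mod_cast p5
    have h5 := mm_ge3 p5
    have h6 : 40 / 81 * (x * (p - 1)) ≤ mm p 3 * (x * (p - 1)) :=
      mul_le_mul_of_nonneg_right h5 (mul_nonneg (by positivity) (by linarith))
    have h7 : (40 : ℝ) * (x * (p - 1)) < 243 * p := by push_cast at h4; nlinarith
    push_cast at hx'
    have h8 : (p : ℝ) < 8 := by nlinarith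
    have h9 : (x : ℝ) < 8 := by nlinarith
    have h8' : p < 8 := by exact_mod_cast h8
    have h9' : x < 8 := by exact_mod_cast h9
    obtain ⟨a, rfl⟩ := op
    omega

theorem caseA_arith {p q u a : ℕ} (hp : p.Prime) (hq : q.Prime) (op : Odd p) (oq : Odd q)
    (h : p ≠ q) (oa : Odd a) (ha : a ∣ p - 1) (hu : u ∣ a ^ (q - 1))
    (h1 : mm p q * p ^ (q - 1) < u * q) : q = 3 ∧ 4 * u = (p - 1) ^ 2 := by
  obtain ⟨p3, q3, hc⟩ := odd_prime_cases hp hq op oq h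
  obtain ⟨k, rfl⟩ := op
  have h2 : a ∣ k := (Nat.coprime_two_right.2 oa).dvd_of_dvd_mul_left (by simpa using ha)
  have h3 : u ∣ k ^ (q - 1) := hu.trans (pow_dvd_pow_of_dvd h2 _)
  have k0 : 0 < k := by omega
  rcases hc with q5 | ⟨rfl, p5⟩
  · exfalso
    have q5' : (5 : ℝ) ≤ q := by exact_mod_cast q5
    have h4 : (u : ℝ) ≤ k ^ (q - 1) := by exact_mod_cast Nat.le_of_dvd (by positivity) h3
    have h5 := mm_ge5 q5 p3
    have h6 : (2 : ℝ) ^ (q - 1) * k ^ (q - 1) ≤ ((2 * k + 1 : ℕ) : ℝ) ^ (q - 1) := by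
      rw [← mul_pow]; push_cast; gcongr; linarith
    have h7 : 2 * q ≤ 2 ^ (q - 1) := by
      obtain ⟨n, rfl⟩ := Nat.exists_eq_add_of_le q5
      have := @Nat.lt_two_pow_self n
      rw [show 5 + n - 1 = n + 4 by omega, pow_add]; omega
    have h7' : (2 * q : ℝ) ≤ 2 ^ (q - 1) := by exact_mod_cast h7
    have h8 : 1 / 2 ≤ mm (2 * k + 1) q :=
      le_of_mul_le_mul_right (a := (q : ℝ) ^ 2) (by nlinarith) (by positivity)
    have k1 : (0 : ℝ) < k ^ (q - 1) := by positivity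
    have : 1 / 2 * (2 * q * k ^ (q - 1)) ≤ mm (2 * k + 1) q * ((2 * k + 1 : ℕ) : ℝ) ^ (q - 1) := by
      gcongr
      exact le_trans (by gcongr) h6
    nlinarith
  · refine ⟨rfl, ?_⟩
    have h4 := mm_gt3 p5
    have h5 : (((2 * k + 1) ^ 2 : ℕ) : ℝ) < (6 * u + 1 : ℕ) := by
      norm_num at h1 h4 ⊢; linarith
    have h6 : (2 * k + 1) ^ 2 < 6 * u + 1 := by exact_mod_cast h5
    obtain ⟨c, hc⟩ := h3
    have : c = 1 := by
      rcases c with _ | _ | c
      · simp at hc; omega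
      · rfl
      · simp at hc; nlinarith
    subst this
    simp at hc ⊢
    rw [← hc]; ring

theorem caseB_arith {p q u : ℕ} (hp : p.Prime) (hq : q.Prime) (op : Odd p) (oq : Odd q)
    (h : p ≠ q) (hu : u ≡ 1 [MOD q]) (hd : u * (p - 1) ∣ p ^ q - 1)
    (h1 : u * (p - 1) = p ^ q - 1 ∨ mm p q * p ^ (q - 1) < u * q) :
    u * (if q ∣ p - 1 then q else 1) * (p - 1) = p ^ q - 1 := by
  obtain ⟨x, hx⟩ := hd
  have p2 := hp.two_le
  have := Fact.mk hq
  have e1 : u * x = ∑ i ∈ Finset.range q, p ^ i := by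
    rw [Nat.geomSum_eq p2, hx, mul_right_comm, Nat.mul_div_cancel _ (by omega)]
  have e2 : Odd x := by
    have : ((u * x : ℕ) : ZMod 2) = 1 := by
      rw [e1]; push_cast
      simp [(ZMod.natCast_eq_one_iff_odd).2 op, (ZMod.natCast_eq_one_iff_odd).2 oq]
    exact (Nat.odd_mul.1 (ZMod.natCast_eq_one_iff_odd.1 this)).2
  have u1 : (u : ZMod q) = 1 := by simpa using (ZMod.natCast_eq_natCast_iff _ _ _).2 hu
  have hlt : x < 2 * q + 1 := by
    by_contra! hle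
    have x0 : (0 : ℝ) < x := by exact_mod_cast (by omega : 0 < x)
    replace h1 := h1.resolve_left fun e => by
      rw [e] at hx
      have := Nat.one_lt_pow hq.ne_zero hp.one_lt
      have : 1 = x := Nat.eq_of_mul_eq_mul_left (by omega) ((mul_one _).trans hx)
      have := hq.two_le
      omega
    obtain ⟨rfl, h2, rfl⟩ := key_arith (u := u * x) hp hq op oq h hle
      (by push_cast; nlinarith) (by rw [hx, mul_right_comm])
    rcases h2 with rfl | rfl <;> omega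
  have hp1 : ((p - 1 : ℕ) : ZMod q) = p - 1 := by rw [Nat.cast_sub hp.one_le, Nat.cast_one]
  rw [hx, mul_right_comm]
  congr 1
  obtain ⟨k, hk⟩ := e2
  obtain ⟨b, hb⟩ := oq
  split_ifs with hc
  · have e3 : (p : ZMod q) = 1 := by
      rw [← sub_eq_zero, ← hp1, ZMod.natCast_eq_zero_iff]; exact hc
    have e4 : ((u * x : ℕ) : ZMod q) = 0 := by rw [e1]; push_cast; simp [e3]
    rw [Nat.cast_mul, u1, one_mul, ZMod.natCast_eq_zero_iff] at e4
    obtain ⟨c, rfl⟩ := e4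
    rcases c with _ | _ | _ | c
    · omega
    · simp
    · omega
    · nlinarith [hq.two_le]
  · have e3 : ((p - 1 : ℕ) : ZMod q) ≠ 0 := by rwa [Ne, ZMod.natCast_eq_zero_iff]
    have e4 : ((p ^ q - 1 : ℕ) : ZMod q) = (p - 1 : ℕ) := by
      rw [Nat.cast_sub (Nat.one_le_pow _ _ hp.pos), Nat.cast_pow, ZMod.pow_card, hp1, Nat.cast_one]
    rw [hx, Nat.cast_mul, Nat.cast_mul, u1, one_mul, mul_eq_left₀ e3] at e4
    have e5 : q ∣ x - 1 := by
      rw [← ZMod.natCast_eq_zero_iff, Nat.cast_sub (by omega), e4, Nat.cast_one, sub_self]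
    obtain ⟨c, hc⟩ := e5
    rcases c with _ | _ | c
    · omega
    · omega
    · nlinarith [hq.two_le, Nat.sub_add_cancel (by omega : 1 ≤ x)]

section
variable {L A B : Type*} [Group L] [Group A] [Group B] [Fintype L] {D : G4 L A B}
  {H U : Subgroup L} [H.Normal] (h : Q9 D H U)
  (t : ∀ l : Ch ↥(H ⊔ U ⊓ C[H]), (∃ x : ↥(H ⊔ U ⊓ C[H]), (x : L) ∈ H ∧ l x ≠ 1) →
    IsIrrCharacter L (indFun _ l) →
    mm (Nat.card B) (Nat.card A) * Nat.card B ^ (Nat.card A - 1) * o[U ⊓ C[H]] <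
      C[H].relIndex U * Nat.card A)
include h t

theorem q9_alt : (CaseB H U ∧ U ⊓ C[H] = ⊥ ∧
    o[U] * (Nat.card B - 1) = Nat.card B ^ Nat.card A - 1) ∨
    mm (Nat.card B) (Nat.card A) * Nat.card B ^ (Nat.card A - 1) * o[U ⊓ C[H]] <
      C[H].relIndex U * Nat.card A := by
  have := D.finA
  have := D.finB
  by_cases e : ∃ l : Ch ↥(H ⊔ U ⊓ C[H]), (∃ x : ↥(H ⊔ U ⊓ C[H]), (x : L) ∈ H ∧ l x ≠ 1) ∧
    IsIrrCharacter L (indFun _ l)
  · obtain ⟨l, h1, h2⟩ := e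
    exact .inr (t l h1 h2)
  · exact .inl (Q9.nine10 (D := D.toD4) h fun l h1 h2 => e ⟨l, h1, h2⟩)

omit t in
theorem q9_ne : Nat.card B ≠ Nat.card A := fun e => by
  have := D.cyc.cop
  rw [e, Nat.coprime_self] at this
  exact D.cyc.neA this

/-- (13.12) -/
theorem q9_C_bot (hF : ∀ N : Subgroup L, N.Normal → Nil[N] → o[N].Coprime N.index → N ≤ H) :
    U ⊓ C[H] = ⊥ := by
  by_contra h0
  have h1 := (q9_alt h t).resolve_left fun e => h0 e.2.1
  have hn := h.normal_C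
  have fr := h.frob.mono (A := U ⊓ C[H]) inf_le_left le_rfl
    (le_top.trans (top_le_norm_iff.2 hn)) h0 h.frob.comp_ne
  have c1 := fr.card_dvd
  rw [D.card_ra] at c1
  have c2 := two_mul_le_of_odd D.cyc.oddA (D.odd.of_dvd_nat (card_subgroup_dvd_card _)) c1
    (mt card_eq_one.1 h0)
  obtain ⟨e1, e2, e3⟩ := key_arith h.pp.1 h.qp D.cyc.oddB D.cyc.oddA (q9_ne h) c2 h1 h.u_le
  have c3 : o[U ⊓ C[H]].Coprime o[H] := h.cop.coprime_dvd_left (card_dvd_of_le inf_le_left)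
  rw [h.card_H', e1, e3] at c3
  obtain e2 : Nat.card B = 5 := e2.resolve_right fun e => by rw [e] at c3; norm_num at c3
  have h2 := mm_gt3 (p := 5) le_rfl
  rw [e1, e2, e3] at h1
  have h3 : 28 < C[H].relIndex U := by
    have : (28 : ℝ) < C[H].relIndex U := by
      generalize C[H].relIndex U = u at h1
      push_cast at h1 h2; linarith
    exact_mod_cast this
  have h4 : C[H].relIndex U = 31 := by
    rcases h.cases with ⟨θ, hA⟩ | hB
    · have a1 := h.two_mul_le hA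
      have a2 := h.u_dvd hA
      rw [e2] at a1
      rw [e1] at a2
      have a3 := (Nat.le_of_dvd (pow_pos (Nat.pos_of_ne_zero index_ne_zero_of_finite) _) a2).trans
        (Nat.pow_le_pow_left (show (stabilizer L θ).relIndex U ≤ 2 by omega) _)
      omega
    · have a1 := (h.caseB_facts hB).1
      rw [e1, e2] at a1
      have a2 : C[H].relIndex U ∣ 31 := Nat.dvd_of_mul_dvd_mul_right (by norm_num : 0 < 4) a1
      exact ((Nat.dvd_prime (by norm_num)).1 a2).resolve_left (by omega)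
  have h5 : o[U] = 31 * 7 := by
    rw [← h4, ← e3, ← inf_relIndex_left, ← card_subgroupOf (inf_le_left (b := C[H])), relIndex,
      index_mul_card]
  have h6 : Nat.card L = 3 * (5 ^ 3 * (31 * 7)) := by
    rw [D.card_eq, ← h.sup, card_sup_of_disj (.inr (h.norm U)) h.disj, h.card_H', h5, e1, e2]
  have h7 : (U ⊓ C[H]).index = 3 * (5 ^ 3 * 31) := by
    have := (U ⊓ C[H]).index_mul_card
    rw [e3, h6] at this
    omega
  have := Fact.mk (by norm_num : Nat.Prime 7)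
  exact h0 (le_bot_iff.1 (h.disj ▸ le_inf (hF _ hn (IsPGroup.of_card (e3.trans (pow_one 7).symm)).isNilpotent (by rw [e3, h7]; norm_num))
    inf_le_left))

variable (hC : U ⊓ C[H] = ⊥)
include hC

omit t in
theorem q9_rel : C[H].relIndex U = o[U] := by
  rw [← inf_relIndex_left, hC, relIndex_bot_left]

/-- (13.13) -/
theorem q9_caseA {θ} (hA : CaseA H U θ) : Nat.card A = 3 ∧ 4 * o[U] = (Nat.card B - 1) ^ 2 := by
  obtain ⟨l, h1, h2⟩ := h.exists_irr_A hA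
  have h3 := t l h1 h2
  have h4 := h.u_dvd hA
  rw [hC, q9_rel h hC, card_bot, Nat.cast_one, mul_one] at h3
  rw [q9_rel h hC] at h4
  exact caseA_arith h.pp.1 h.qp D.cyc.oddB D.cyc.oddA (q9_ne h)
    (D.odd.of_dvd_nat (relIndex_dvd_card' _ _)) (h.a_dvd hA) h4 h3

/-- (13.15) -/
theorem q9_caseB (hB : CaseB H U) : Cyc[U] ∧ o[U].Coprime (Nat.card B - 1) ∧
    o[U] * (if Nat.card A ∣ Nat.card B - 1 then Nat.card A else 1) * (Nat.card B - 1) =
      Nat.card B ^ Nat.card A - 1 := by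
  obtain ⟨h1, h2, h3⟩ := h.caseB_facts hB
  have h4 := h.frob.modEq
  rw [D.card_ra] at h4
  rw [q9_rel h hC] at h1 h2
  refine ⟨h3 hC, h2, caseB_arith h.pp.1 h.qp D.cyc.oddB D.cyc.oddA (q9_ne h) h4 h1 ?_⟩
  refine (q9_alt h t).imp (·.2.2) fun e => ?_
  rwa [hC, q9_rel h hC, card_bot, Nat.cast_one, mul_one] at e

end

variable {G : Type*} [Group G] [Fintype G] [hG : BGI G] {S T U V W₁ W₂ : Subgroup G}

omit [Fintype G] hG in
theorem inf_cent_subgroupOf :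
    (U ⊓ C[MF[S]]).subgroupOf S = U.subgroupOf S ⊓ C[fittingHall S] := by
  ext x
  simp only [mem_subgroupOf, mem_inf, mem_centralizer_iff, SetLike.mem_coe]
  refine and_congr_right fun _ => ⟨fun e y hy => Subtype.ext (e _ ⟨y, hy, rfl⟩), ?_⟩
  rintro e _ ⟨y, hy, rfl⟩
  exact congrArg Subtype.val (e y hy)

namespace Pair
variable (h : Pair S T W₁ W₂ U V) (hq : Q9 (tpG h.tS) (fittingHall S) (U.subgroupOf S))
  (t : ∀ l : Ch ↥(fittingHall S ⊔ U.subgroupOf S ⊓ C[fittingHall S]),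
    (∃ x : ↥(fittingHall S ⊔ U.subgroupOf S ⊓ C[fittingHall S]), (x : S) ∈ fittingHall S ∧ l x ≠ 1) →
    IsIrrCharacter S (indFun _ l) →
    (1 - 1 / (o[W₁] - 1) - (o[W₁] - 1) / o[W₁] ^ o[W₂] + 1 / ((o[W₁] - 1) * o[W₁] ^ o[W₂]) : ℝ) *
      o[W₂] ^ (o[W₁] - 1) * o[U ⊓ C[MF[S]]] <
      C[fittingHall S].relIndex (U.subgroupOf S) * o[W₁])
include hq t

theorem t10_of (l : Ch ↥(fittingHall S ⊔ U.subgroupOf S ⊓ C[fittingHall S]))
    (h1 : ∃ x : ↥(fittingHall S ⊔ U.subgroupOf S ⊓ C[fittingHall S]),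
      (x : S) ∈ fittingHall S ∧ l x ≠ 1) (h2 : IsIrrCharacter S (indFun _ l)) :
    mm o[W₂] o[W₁] * o[W₂] ^ (o[W₁] - 1) * o[U.subgroupOf S ⊓ C[fittingHall S]] <
      C[fittingHall S].relIndex (U.subgroupOf S) * o[W₁] := by
  have := t l h1 h2
  rwa [← card_subgroupOf (inf_le_left.trans h.tS.U_le), inf_cent_subgroupOf] at this

theorem C_bot_sub : U.subgroupOf S ⊓ C[fittingHall S] = ⊥ :=
  q9_C_bot hq (h.t10_of hq t) fun _ h1 h2 h3 => le_sSup ⟨h1, h2, h3⟩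

/-- (13.12), from (13.2) and (13.10). -/
theorem C_bot_of : U ⊓ C[MF[S]] = ⊥ := by
  rw [← card_eq_one, ← card_subgroupOf (inf_le_left.trans h.tS.U_le), inf_cent_subgroupOf,
    h.C_bot_sub hq t, card_bot]

/-- (13.13), from (13.2) and (13.10). -/
theorem caseA_of {θ} (hA : CaseA (fittingHall S) (U.subgroupOf S) θ) :
    o[W₁] = 3 ∧ 4 * o[U] = (o[W₂] - 1) ^ 2 :=
  card_subgroupOf h.tS.U_le ▸ q9_caseA hq (h.t10_of hq t) (h.C_bot_sub hq t) hA

/-- (13.15), from (13.2) and (13.10). -/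
theorem caseB_of (hB : CaseB (fittingHall S) (U.subgroupOf S)) : Cyc[U] ∧
    o[U].Coprime (o[W₂] - 1) ∧
    o[U] * (if o[W₁] ∣ o[W₂] - 1 then o[W₁] else 1) * (o[W₂] - 1) = o[W₂] ^ o[W₁] - 1 := by
  obtain ⟨h1, h2⟩ := q9_caseB hq (h.t10_of hq t) (h.C_bot_sub hq t) hB
  rw [card_subgroupOf h.tS.U_le] at h2
  exact ⟨isCyclic_of_surjective _ (subgroupOfEquivOfLe h.tS.U_le).surjective, h2⟩

end Pair

end CfsgPF
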