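import Cfsg.Agent.H2.SMu1

set_option autoImplicit false

/-! The Hopf extension and metacyclic models. -/

namespace CfsgH2.SMu

open Subgroup Function Cfsg CfsgH1.SM
open scoped commutatorElement

variable {G G' Γ : Type*} [Group G] [Group G'] [Group Γ]

/-- `F / [R, F] → F / R` -/
def hopf (R : Subgroup G) [R.Normal] : G ⧸ ⁅R, (⊤ : Subgroup G)⁆ →* G ⧸ R :=
  QuotientGroup.map _ _ (MonoidHom.id G) (commutator_le_left R ⊤)

theorem hopf_mk (R : Subgroup G) [R.Normal] (x : G) : hopf R (x : G ⧸ ⁅R, (⊤ : Subgroup G)⁆) = (x : G ⧸ R) := rfl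

theorem hopf_surj (R : Subgroup G) [R.Normal] : Surjective (hopf R) := fun y => by
  obtain ⟨x, rfl⟩ := QuotientGroup.mk_surjective y
  exact ⟨x, rfl⟩

theorem hopf_cen (R : Subgroup G) [R.Normal] : (hopf R).ker ≤ center _ := fun y hy => by
  obtain ⟨x, rfl⟩ := QuotientGroup.mk_surjective y
  rw [mem_center_iff]; intro g
  obtain ⟨g, rfl⟩ := QuotientGroup.mk_surjective g
  have hx : x ∈ R := (QuotientGroup.eq_one_iff x).1 hy
  refine (Commute.eq (Commute.symm ?_))
  rw [← commutatorElement_eq_one_iff_commute]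
  exact (QuotientGroup.eq_one_iff ⁅x, g⁆).2 (commutator_mem_commutator hx (mem_top g))

theorem hopf_lower {rels : Set G} [Finite (G ⧸ normalClosure rels)] (φ : G →* Γ)
    (h : ∀ r ∈ rels, ∀ x, Commute x (φ r)) {w : G} (h1 : w ∈ normalClosure rels) (h2 : w ∈ commutator G) :
    orderOf (φ w) ∣ Nat.card (M (G ⧸ normalClosure rels)) := by
  have hR : normalClosure rels ≤ (center Γ).comap φ :=
    normalClosure_le_normal fun r hr => mem_center_iff.2 fun g => h r hr g
  have hk : ⁅normalClosure rels, (⊤ : Subgroup G)⁆ ≤ φ.ker := by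
    rw [commutator_le]; intro x hx y _
    rw [MonoidHom.mem_ker, map_commutatorElement, commutatorElement_eq_one_iff_commute]
    exact (mem_center_iff.1 (hR hx) _).symm
  refine (orderOf_map_dvd (QuotientGroup.lift _ φ hk) (w : G ⧸ _)).trans
    (orderOf_dvd_M (hopf_surj _) (hopf_cen _) ((QuotientGroup.eq_one_iff w).2 h1) ?_)
  have : (commutator G).map (QuotientGroup.mk' ⁅normalClosure rels, (⊤ : Subgroup G)⁆) ≤ commutator _ := by
    rw [_root_.commutator_def, map_commutator]; exact commutator_mono le_top le_top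
  exact this ⟨w, h2, rfl⟩

theorem exists_model (m n r t : ℕ) (hn : 0 < n) (u : ZMod m) (hrn : (r : ZMod m) ^ n = 1) (ht : (r : ZMod m) * t = t)
    (hu1 : u * t = 0) (hu2 : u * ∑ i ∈ Finset.range n, (r : ZMod m) ^ i = 0) :
    ∃ (Γ : Type) (_ : Group Γ) (α β ω : Γ), (∀ g, Commute g ω) ∧ (∀ g, Commute g (β ^ n * (α ^ t)⁻¹)) ∧ α ^ m = 1 ∧
      β * α * β⁻¹ = α ^ r * ω ∧ orderOf ω = addOrderOf u ∧
      ∀ (j : ℕ) (k : ℤ), α ^ j = (β ^ n * (α ^ t)⁻¹) ^ k → m ∣ j := by
  obtain ⟨ρ, hρ⟩ : IsUnit (r : ZMod m) := IsUnit.of_pow_eq_one hrn hn.ne'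
  let b0 : ZMod m × ZMod m ≃+ ZMod m × ZMod m :=
    { toFun := fun v => (ρ * v.1, v.2 + u * v.1)
      invFun := fun v => (ρ⁻¹ * v.1, v.2 - u * (↑ρ⁻¹ * v.1))
      left_inv := fun v => by ext <;> simp
      right_inv := fun v => by ext <;> simp
      map_add' := fun v w => by ext <;> simp <;> ring }
  let N := Multiplicative (ZMod m × ZMod m)
  let b : MulAut N := AddEquiv.toMultiplicative b0
  have hb : ∀ v : ZMod m × ZMod m, b (.ofAdd v) = .ofAdd ((r : ZMod m) * v.1, v.2 + u * v.1) := fun v => by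
    rw [← hρ]; rfl
  have hbk : ∀ (k : ℕ) (v : ZMod m × ZMod m), (b ^ k) (.ofAdd v) =
      .ofAdd ((r : ZMod m) ^ k * v.1, v.2 + u * (∑ i ∈ Finset.range k, (r : ZMod m) ^ i) * v.1) := by
    intro k v
    induction k with
    | zero => simp
    | succ k ih =>
      rw [pow_succ', MulAut.mul_apply, ih, hb, Finset.sum_range_succ]
      congr 1; ext <;> simp <;> ring
  have hbn : b ^ n = 1 := by
    ext v : 1
    obtain ⟨v, rfl⟩ := Multiplicative.ofAdd.surjective v
    rw [hbk, hrn, hu2]; simp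
  let φ := zpowersHom (MulAut N) b
  let β : N ⋊[φ] Multiplicative ℤ := .inr (.ofAdd 1)
  have cj : ∀ v : N, β * .inl v * β⁻¹ = .inl (b v) := fun v => by
    rw [← map_inv, ← SemidirectProduct.inl_aut]; simp [φ]
  have all : ∀ z : N ⋊[φ] Multiplicative ℤ, (∀ v, Commute (.inl v) z) → Commute β z → ∀ g, Commute g z := by
    intro z h1 h2 g
    rw [← g.inl_left_mul_inr_right]
    refine (h1 _).mul_left ?_
    have : (SemidirectProduct.inr g.right : N ⋊[φ] Multiplicative ℤ) = β ^ g.right.toAdd := by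
      rw [← map_zpow, ← ofAdd_zsmul]; simp
    rw [this]; exact h2.zpow_left _
  have pw : ∀ j : ℕ, (SemidirectProduct.inl (.ofAdd (1, 0)) : N ⋊[φ] Multiplicative ℤ) ^ j = .inl (.ofAdd (j, 0)) := by
    intro j; rw [← map_pow, ← ofAdd_nsmul]; simp
  refine ⟨N ⋊[φ] Multiplicative ℤ, inferInstance, .inl (.ofAdd (1, 0)), β, .inl (.ofAdd (0, u)), ?_, ?_, ?_, ?_, ?_, ?_⟩
  · refine all _ (fun v => (Commute.all _ _).map _) ?_
    rw [Commute, SemiconjBy, ← mul_inv_eq_iff_eq_mul, cj, hb]; simp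
  · refine all _ (fun v => Commute.mul_right ?_ (Commute.inv_right ?_)) (Commute.mul_right ?_ (Commute.inv_right ?_))
    · have : β ^ n = .inr (.ofAdd (n : ℤ)) := by rw [← map_pow, ← ofAdd_nsmul]; simp
      rw [this, Commute, SemiconjBy, eq_comm, ← mul_inv_eq_iff_eq_mul, ← map_inv, ← SemidirectProduct.inl_aut]
      simp [φ, hbn]
    · rw [pw]; exact (Commute.all _ _).map _
    · exact (Commute.refl _).pow_right _
    · rw [pw, Commute, SemiconjBy, ← mul_inv_eq_iff_eq_mul, cj, hb]; simp [ht, hu1]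
  · rw [pw, ZMod.natCast_self]; exact map_one _
  · rw [cj, hb, pw, ← map_mul, ← ofAdd_add]; simp
  · rw [orderOf_injective _ SemidirectProduct.inl_injective, orderOf_ofAdd_eq_addOrderOf]
    exact addOrderOf_injective (AddMonoidHom.inr (ZMod m) (ZMod m)) (fun _ _ e => by simpa using e) u
  · intro j k e
    have := congrArg (fun g => (SemidirectProduct.rightHom g).toAdd) e
    simp only [β, map_pow, map_zpow, map_mul, map_inv, SemidirectProduct.rightHom_inl, SemidirectProduct.rightHom_inr] at this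
    simp [hn.ne'] at this
    rw [this, zpow_zero, pw] at e
    have := congrArg (fun g => g.left.toAdd.1) e
    exact (ZMod.natCast_eq_zero_iff j m).1 this

theorem finite_meta {a b : G} (hg : closure {a, b} = ⊤) {m n r t : ℕ} (hm : 0 < m) (hn : 0 < n) (h1 : a ^ m = 1)
    (h2 : b ^ n = a ^ t) (h3 : b * a * b⁻¹ = a ^ r) : Finite G := by
  haveI : Finite (zpowers a) := finite_zpowers.2 (isOfFinOrder_iff_pow_eq_one.2 ⟨m, hm, h1⟩)
  haveI : (zpowers a).Normal := by
    rw [← normalizer_eq_top_iff, eq_top_iff, ← hg, closure_le]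
    rintro _ (rfl | rfl)
    · exact le_normalizer (mem_zpowers _)
    · refine mem_normalizer_fintype fun n hn => ?_
      obtain ⟨k, rfl⟩ := hn
      show _ * a ^ k * _ ∈ zpowers a
      rw [← conj_zpow, h3]; exact zpow_mem (pow_mem (mem_zpowers a) r) k
  have e : zpowers (b : G ⧸ zpowers a) = ⊤ := by
    rw [eq_top_iff, ← map_top_of_surjective _ (QuotientGroup.mk'_surjective (zpowers a)), ← hg, map_le_iff_le_comap,
      closure_le]
    rintro _ (rfl | rfl)
    · exact ⟨0, (zpow_zero _).trans ((QuotientGroup.eq_one_iff _).2 (mem_zpowers _)).symm⟩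
    · exact mem_zpowers _
  haveI : Finite (zpowers (b : G ⧸ zpowers a)) := finite_zpowers.2 (isOfFinOrder_iff_pow_eq_one.2 ⟨n, hn, by
    rw [← QuotientGroup.mk_pow, h2]; exact (QuotientGroup.eq_one_iff _).2 (pow_mem (mem_zpowers a) t)⟩)
  haveI : Finite (G ⧸ zpowers a) := Finite.of_surjective (zpowers (b : G ⧸ zpowers a)).subtype fun x =>
    ⟨⟨x, e.ge (mem_top x)⟩, rfl⟩
  exact Finite.of_subgroup_quotient (zpowers a)

end CfsgH2.SMu
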