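import Cfsg.Agent.H2.BGW
import Cfsg.Agent.H2.Gs3
import Cfsg.Agent.L0.PCon
import Cfsg.Agent.H1.HH

/-! Bender's form of the transitivity theorem. -/

set_option autoImplicit false
namespace CfsgH2.Tt
open Subgroup Function Cfsg CfsgL0
open scoped commutatorElement

variable {G : Type*} [Group G] [Finite G] {E P S Y H D : Subgroup G} {p q : ℕ} [hp : Fact p.Prime]

theorem act (hE : PG[p, E]) (hP : PG[p, P]) (hY : ¬ p ∣ o[Y]) (n1 : E ≤ N[Y]) (n2 : E ≤ N[P])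
    (n3 : Y ≤ N[P]) (hf : P ⊓ C[E] ≤ E) (h2 : p = 2 → ⁅P, E⁆ ≤ C[P] ⊓ C[E]) : Y ≤ C[P] := by
  have c := (coprime_of_pgroup hP hY).symm
  have k : P ⊓ C[E] ≤ C[Y] := le_cent_of_comm_le_inf (hf.trans n1) n3 inf_le_left
    (inf_eq_bot_of_coprime' c)
  by_cases hp2 : p = 2
  swap
  · exact CfsgH1.thompson_pq_odd hp2 hE hY n1 P hP n2 n3 k
  have w1 := (h2 hp2).trans inf_le_left
  have w2 := (h2 hp2).trans inf_le_right
  have w : ⁅P, E⁆ ≤ C[Y] := (le_inf (comm_le_left n2) w2).trans k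
  have s := isSolvable_of_pgroup hP
  rw [← coprime_comm_sup_cent n1 (coprime_of_pgroup hE hY) (.inl (isSolvable_of_pgroup hE))]
  have l : ⁅Y, E⁆ ≤ Y := comm_le_left n1
  refine sup_le (coprime_le_cent_of_stable (N := ⁅P, E⁆) (l.trans n3)
    (c.coprime_dvd_left (card_dvd_of_le l)) (.inr s) ?_ (l.trans (le_centralizer_iff.1 w))) ?_
  · have t : ⁅⁅E, Y⁆, P⁆ ≤ ⁅P, E⁆ := three_subgroup_le le_norm_comm_right
      (le_norm_of_le_cent (le_centralizer_iff.1 w)) le_norm_comm_left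
      (commutator_mono (comm_le_right n3) le_rfl) ((comm_eq_bot_iff.2 w).le.trans bot_le)
    exact (commutator_comm _ _).le.trans ((commutator_mono (commutator_comm _ _).le le_rfl).trans t)
  · refine coprime_le_cent (inf_le_left.trans n3) (c.coprime_dvd_left (card_dvd_of_le inf_le_left))
      (.inr s) ((le_inf (comm_le_left (inf_le_left.trans n3)) ?_).trans
        (k.trans (cent_anti inf_le_left)))
    rw [commutator_comm]
    refine comm_eq_bot_iff.1 (three_subgroup (comm_eq_bot_iff.2 (w.trans (cent_anti inf_le_left))) ?_)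
    rw [comm_eq_bot_iff.2 (le_centralizer_iff.1 inf_le_right), commutator_bot_left]

theorem le_core_top (hc : IsPConstrained p G) (hS : Syl p S ⊤) (hE : E ≤ S) (hf : S ⊓ C[E] ≤ E)
    (h2 : p = 2 → ⁅S, S⁆ ≤ C[S]) (hY : ¬ p ∣ o[Y]) (n : E ≤ N[Y]) : Y ≤ pPrimeCore p G := by
  set f := QuotientGroup.mk' (pPrimeCore p G) with hf'
  have c := pcon_iff.1 hc
  have s := hS.map f
  rw [map_top_of_surjective _ (QuotientGroup.mk'_surjective _)] at s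
  have l := s.pCoreOf_le
  have hY' : ¬ p ∣ o[Y.map f] := fun d => hY (d.trans (card_map_dvd _ _))
  have z : S ⊓ f.ker = ⊥ := inf_eq_bot_of_coprime' (coprime_of_pgroup hS.pg nd_ker_mk)
  have a := act (E := E.map f) (P := O[{p}, ⊤]) ((hS.pg.to_le hE).map f) isPGroup_piCoreOf hY'
    (map_le_norm_map f n) (le_top.trans le_norm_piCoreOf) (le_top.trans le_norm_piCoreOf)
    (fun y hy => by
      obtain ⟨x, hx, rfl⟩ := l hy.1
      refine mem_map_of_mem f (hf ⟨hx, zpowers_le.1 (comm_eq_bot_iff.1 (le_bot_iff.1 (z ▸ le_inf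
        (comm_le_norm (zpowers_le.2 hx) hE) ((map_le_cent_map_iff_comm f).1 ?_))))⟩)
      rw [MonoidHom.map_zpowers]; exact zpowers_le.2 hy.2)
    fun e => ((commutator_mono l (map_mono hE)).trans (by
      rw [← map_commutator]; exact map_le_cent_map f (h2 e))).trans
        (le_inf (cent_anti l) (cent_anti (map_mono hE)))
  have := eq_bot_of_pgroup_of_not_dvd (isPGroup_piCoreOf.to_le ((le_inf le_top a).trans c)) hY'
  rwa [Subgroup.map_eq_bot_iff, hf', QuotientGroup.ker_mk'] at this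

theorem le_core (hc : IsPConstrained p H) (pE : PG[p, E]) (hE : E ≤ H)
    (hf : ∀ S : Subgroup G, PG[p, S] → S ⊓ C[E] ≤ E)
    (h2 : p = 2 → ∀ S : Subgroup G, PG[p, S] → ⁅S, S⁆ ≤ C[S]) (hY : ¬ p ∣ o[Y]) (l : Y ≤ H)
    (n : E ≤ N[Y]) : Y ≤ O[{p}ᶜ, H] := by
  have i := H.subtype_injective
  rw [← map_subtype_top H] at hE l
  obtain ⟨E, -, rfl⟩ := exists_map_eq_le hE
  obtain ⟨Y, -, rfl⟩ := exists_map_eq_le l
  obtain ⟨S, hS, a⟩ := exists_syl_ge (pE.of_equiv (equivMapOfInjective E _ i).symm) (M := ⊤) le_top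
  rw [← map_pPrimeCore_subtype]
  refine map_mono (le_core_top hc hS a (fun x hx => ?_) (fun e => ?_)
    (by rwa [card_map_of_injective i] at hY)
    ((map_le_norm_map_iff _ (by rw [ker_subtype]; exact bot_le)).1 n))
  · exact (mem_map_iff_mem i).1 (hf _ (hS.pg.map H.subtype) ⟨mem_map_of_mem _ hx.1,
      map_cent_le _ _ (mem_map_of_mem _ hx.2)⟩)
  · have := h2 e _ (hS.pg.map H.subtype)
    rw [← map_commutator, map_le_cent_map_iff_comm, ker_subtype, le_bot_iff] at this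
    exact comm_eq_bot_iff.1 this

theorem ex_cent {B Q : Subgroup G} (hB : Ab[B]) (hc : ¬ Cyc[B]) (hn : B ≤ N[Q])
    (c : o[B].Coprime o[Q]) (h0 : ¬ Q ≤ D) : ∃ b ∈ B, b ≠ 1 ∧ ¬ Q ⊓ C1[b] ≤ D := by
  by_contra! h
  exact h0 (le_of_cent1 hB hc hn c h)

theorem trans [hq : Fact q.Prime] (hqp : q ≠ p) (pE : PG[p, E]) (aE : Ab[E]) (h3 : 3 ≤ prk p E)
    (hf : ∀ S : Subgroup G, PG[p, S] → S ⊓ C[E] ≤ E)
    (hl : ∀ x ∈ E, x ≠ 1 → ∀ Y : Subgroup G, ¬ p ∣ o[Y] → Y ≤ C1[x] → E ≤ N[Y] →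
      Y ≤ O[{p}ᶜ, N[zpowers x]]) : Tr q O[{p}ᶜ, C[E]] E := by
  have nd : ∀ {Q : Subgroup G}, PG[q, Q] → ¬ p ∣ o[Q] := fun h =>
    (piN_compl_singleton hp.out).1 (IsPGroup.piN h hqp)
  have npc : NPC p C[E] := (Syl.of_max (le_cent_self aE) pE fun Q a b c =>
    le_antisymm ((le_inf le_rfl c).trans (hf Q a)) b).npc_of_norm_le_cent inf_le_left
  obtain ⟨B, hB, h3⟩ := exists_el_of_le h3
  suffices ∀ D Q₁ Q₂ : Subgroup G, MI q E Q₁ → MI q E Q₂ → D ≤ Q₁ → D ≤ Q₂ →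
    ∃ k ∈ O[{p}ᶜ, C[E]], Q₁:^k = Q₂ from fun _ _ a b => this ⊥ _ _ a b bot_le bot_le
  intro D
  induction D using WellFoundedGT.induction with | ind D ih => ?_
  intro Q₁ Q₂ h1 h2 d1 d2
  by_cases e : Q₁ = Q₂
  · exact ⟨1, one_mem _, by rw [map_cj_one, e]⟩
  have l1 : Q₁ ⊓ Q₂ < Q₁ := inf_lt_left.2 fun l => e (h1.max _ h2.pg h2.n l).symm
  have l2 : Q₁ ⊓ Q₂ < Q₂ := inf_lt_right.2 fun l => e (h2.max _ h1.pg h1.n l)
  have d := le_inf d1 d2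
  have nD : E ≤ N[Q₁ ⊓ Q₂] := le_norm_inf h1.n h2.n
  have pD : PG[q, (Q₁ ⊓ Q₂ : Subgroup G)] := h1.pg.to_inf_left
  have m1 := lt_inf_norm (nil_of_pg h1.pg) l1
  have m2 := lt_inf_norm (nil_of_pg h2.pg) l2
  have i1 := l1.le
  have i2 := l2.le
  generalize Q₁ ⊓ Q₂ = V at *
  have n1 : E ≤ N[Q₁ ⊓ N[V]] := le_norm_inf h1.n (le_norm_norm nD)
  have n2 : E ≤ N[Q₂ ⊓ N[V]] := le_norm_inf h2.n (le_norm_norm nD)
  have : ∃ U ≤ B, ¬ Cyc[U] ∧ ¬ Q₁ ⊓ N[V] ⊓ C[U] ≤ V := by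
    by_contra! h4
    exact m1.not_ge (le_of_cocyclic h3.comm (hB.trans n1)
      (coprime_of_pgroup h3.pg (nd h1.pg.to_inf_left))
      fun U a ⟨x, b, c⟩ => h4 U a (h3.not_cyc_of_sup a b c))
  obtain ⟨U, a, b, c⟩ := this
  obtain ⟨z, hz, z0, z2⟩ := ex_cent (isMulComm_of_le h3.comm a) b ((a.trans hB).trans n2)
    (coprime_of_pgroup (h3.pg.to_le a) (nd h2.pg.to_inf_left)) m2.not_ge
  have z1 : ¬ Q₁ ⊓ N[V] ⊓ C1[z] ≤ V := fun l => c ((inf_le_inf_left _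
    (by rw [← cent_zpowers]; exact cent_anti (zpowers_le.2 hz))).trans l)
  have zE := hB (a hz)
  have cz : E ≤ C[zpowers z] := le_cent_of_comm aE (zpowers_le.2 zE)
  set L := O[{p}ᶜ, N[zpowers z]] ⊓ N[V] ⊔ V with hL
  have nL : E ≤ N[L] := le_norm_sup (le_norm_inf ((le_norm_of_le_cent cz).trans le_norm_piCoreOf)
    (le_norm_norm nD)) nD
  have dL : ¬ p ∣ o[L] := (piN_compl_singleton hp.out).1 (piN_sup (piN_of_le piN_piCoreOf inf_le_left)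
    (IsPGroup.piN pD hqp) (.inl inf_le_right))
  have cL := coprime_of_pgroup pE dL
  have sE : Sol[E] ∨ Sol[L] := .inl (isSolvable_of_pgroup pE)
  have key : ∀ Q, MI q E Q → V ≤ Q → ¬ Q ⊓ N[V] ⊓ C1[z] ≤ V →
      ∃ R, Syl q R L ∧ E ≤ N[R] ∧ V < Q ⊓ R := fun Q hQ i z1 => by
    have n0 : E ≤ N[Q ⊓ N[V] ⊓ C1[z]] := le_norm_inf (le_norm_inf hQ.n (le_norm_norm nD))
      (by rw [← cent_zpowers]; exact le_norm_of_le cz)
    have p0 : PG[q, (Q ⊓ N[V] ⊓ C1[z] : Subgroup G)] := hQ.pg.to_inf_left.to_inf_left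
    have i0 : Q ⊓ N[V] ⊓ C1[z] ⊔ V ≤ Q := sup_le (inf_le_left.trans inf_le_left) i
    obtain ⟨R, r1, r2, r3⟩ := exists_inv_syl_ge nL cL sE (sup_le_sup_right (le_inf
      (hl z zE z0 _ (nd p0) inf_le_right n0) (inf_le_left.trans inf_le_right)) V)
      (hQ.pg.to_le i0) (le_norm_sup n0 nD)
    exact ⟨R, r1, r2, (right_lt_sup.2 z1).trans_le (le_inf i0 r3)⟩
  obtain ⟨R₁, a1, b1, c1⟩ := key _ h1 i1 z1
  obtain ⟨R₂, a2, b2, c2⟩ := key _ h2 i2 z2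
  obtain ⟨k, hk, e⟩ := inv_syl_conj nL cL sE a1 a2 b1 b2
  have kO : k ∈ O[{p}ᶜ, C[E]] := npc.le inf_le_right
    (fun t => dL (t.trans (card_dvd_of_le inf_le_left))) hk
  have kV : k ∈ N[V] := (sup_le inf_le_right le_normalizer : L ≤ N[V]) hk.1
  obtain ⟨Q, s, t⟩ := exists_mi a2.pg b2
  have m3 : D < (Q₁ ⊓ R₁):^k := d.trans_lt (by
    conv_lhs => rw [← map_cj_eq kV]
    exact lt_of_le_of_ne (map_mono c1.le) fun e => c1.ne (map_cj_inj.1 e))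
  obtain ⟨f, hf, e1⟩ := ih _ m3 _ _ (h1.map_cj (cent_le_norm E hk.2)) t (map_mono inf_le_left)
    ((map_mono inf_le_right).trans (e.le.trans s))
  obtain ⟨g, hg, e2⟩ := ih _ (d.trans_lt c2) _ _ t h2 (inf_le_right.trans s) inf_le_left
  exact ⟨g * (f * k), mul_mem hg (mul_mem hf kO), by rw [← map_cj_cj, ← map_cj_cj, e1, e2]⟩

end CfsgH2.Tt
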