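import Cfsg.Agent.H2.ZN1

/-! `J(T)`-components inside solvable subgroups of characteristic two. -/

set_option autoImplicit false
namespace CfsgH2
open Subgroup Function Cfsg CfsgL0 CfsgBG
open scoped commutatorElement

variable {G : Type*} [Group G] [Finite G] {A B D E H J K L M P Q R S T U V W X Y : Subgroup G}

scoped notation "VL[" L "]" => ΩZ[O2[L]]

theorem eq_three {n : ℕ} (d : n ∣ 6) (i : ¬ 2 ∣ n) (h : n ≠ 1) : n = 3 := by
  have := Nat.le_of_dvd (by omega) d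
  interval_cases n <;> simp_all
theorem piN_two : PiN {2} 2 := PiN.of_prime (π := {2}) Nat.prime_two rfl

theorem AF.le_cent {p : ℕ} [Fact p.Prime] (h : AF p V L) (l : X ≤ J[p, L] ⊔ L ⊓ C[V])
    (c : ∀ E, AC p V L E → X ≤ C[⁅V, E⁆]) : X ≤ C[V] := by
  have n : X ≤ N[V] := l.trans ((sup_le J_le inf_le_left).trans h.nm)
  have l2 : bar V X ≤ bar V J[p, L] := (bar_le_bar n h.Jn).2 (l.trans (sup_le_sup_left inf_le_right _))
  have e1 : sSup {E | Cm p (vv V V) (bar V J[p, L]) E} = bar V J[p, L] :=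
    le_antisymm (sSup_le fun E c => Cm.le c) (Cm.gen h.gen' fun E c => le_sSup c)
  obtain ⟨e2, -, e4⟩ := h.fa.cent_sup (𝓔 := {E | Cm p (vv V V) (bar V J[p, L]) E}) fun _ c => c
  rw [e1] at e2 e4
  rw [← bar_le_cent le_rfl n, ← e4, cent_sup, e2]
  refine le_inf (le_centralizer_iff.1 (iSup₂_le fun E' d => ?_))
    (l2.trans (le_centralizer_iff.1 inf_le_right))
  obtain ⟨a, e⟩ := h.ac d
  rw [← e, ← vv_comm le_rfl (a.n h), le_centralizer_iff, bar_le_cent (a.WV h) n]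
  exact c _ a

/-- The local hypothesis. -/
structure LS (L : Subgroup G) : Prop where
  sol : Sol[L]
  con : C[O2[L]] ≤ O2[L]
  cl : ∀ T, Syl 2 T L → L ⊓ C[VL[L]] ≤ N[T]

theorem nVL : L ≤ N[VL[L]] := le_normalizer.trans norm_le_norm_OZ
theorem nCL : L ≤ N[L ⊓ C[VL[L]]] := le_norm_inf le_normalizer (le_norm_cent nVL)
theorem core_le_CL : O2[L] ≤ L ⊓ C[VL[L]] := le_inf piCoreOf_le le_cent_OZ

namespace LS
variable (h : LS L)
include h

theorem le_core (pP : PG[2, P]) (l : P ≤ L ⊓ C[VL[L]]) : P ≤ O2[L] := by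
  obtain ⟨T, t, l2⟩ := exists_syl_ge pP (l.trans inf_le_left)
  exact (le_inf l2 l).trans ((le_pCoreOf inf_le_right (le_norm_inf (h.cl T t) le_normalizer)
    (t.pg.to_le inf_le_left)).trans (piCoreOf_le_of_norm inf_le_left nCL))
theorem comm_C (pP : PG[2, P]) (l : P ≤ L) : ⁅L ⊓ C[VL[L]], P⁆ ≤ O2[L] := by
  obtain ⟨T, t, l2⟩ := exists_syl_ge pP l
  exact h.le_core (t.pg.to_le ((commutator_mono le_rfl l2).trans (comm_le_right (h.cl T t))))
    (comm_le_left (l.trans nCL))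
theorem af : AF 2 VL[L] L := by
  refine ⟨elem_OZ, OZ_le.trans piCoreOf_le, nVL,
    haveI := h.sol; CfsgH1.sep_pi_of_isSolvable _, fun D l n c => ?_⟩
  obtain ⟨T, t⟩ := exists_syl (p := 2) L
  have t2 := t.inf_norm l (t.le.trans n)
  refine t2.piRes_sup.ge.trans (sup_le c (le_trans ?_ le_cent_OZ))
  refine (le_pCoreOf inf_le_right ?_ t2.pg).trans (piCoreOf_le_of_norm l n)
  exact t2.piRes_sup.ge.trans (sup_le (le_norm_inf ((le_inf (piRes_le.trans l) c).trans (h.cl T t))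
    (le_norm_of_le piRes_le)) le_normalizer)
theorem C_le_norm_J (t : Syl 2 T L) : L ⊓ C[VL[L]] ≤ N[J[2, T]] := (h.cl T t).trans norm_le_norm_J
theorem odd_C : ¬ 2 ∣ O2[L].relIndex (L ⊓ C[VL[L]]) := by
  obtain ⟨P, s⟩ := exists_syl (p := 2) (L ⊓ C[VL[L]])
  exact s.not_dvd_of_le (h.le_core s.pg s.le)
theorem V_le_J (t : Syl 2 T L) : VL[L] ≤ J[2, T] := by
  obtain ⟨A, a⟩ := exists_ME 2 T
  have b := h.af.me (a.syl t)
  refine le_sup_left.trans ((b.mono (sup_le (OZ_le.trans t.pCoreOf_le) (inf_le_left.trans a.le))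
    t.le).le_J)
theorem not_cent (t : Syl 2 T L) (k : JC J[2, T] K) (l : K ≤ L) : ¬ K ≤ C[VL[L]] := fun c =>
  k.not_norm t.pg J_le ((le_inf l c).trans (h.cl T t))
theorem core_le_norm (t : Syl 2 T L) (k : JC J[2, T] K) (l : K ≤ L) : O2[L] ≤ N[K] :=
  k.le_norm (t.pg.to_le J_le) (l.trans le_norm_piCoreOf) (t.pCoreOf_le.trans le_norm_J)

variable (c : AC 2 VL[L] L E)
include c

theorem cW : o[⁅VL[L], E⁆] = 4 := c.cW h.af
theorem idx : (L ⊓ C[VL[L]]).relIndex E = 6 := by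
  rw [← inf_relIndex_right, inf_comm L, inf_assoc, inf_eq_right.2 c.le, inf_relIndex_right]
  exact c.idx h.af
theorem exists_a (t : Syl 2 T L) : ∃ A, ME 2 T A ∧ ¬ A ⊓ E ≤ C[VL[L]] := by
  obtain ⟨A, a, n⟩ := c.exists_me h.af t
  refine ⟨A, a, fun l => n ?_⟩
  rw [sup_inf_of_norm' (.inl (a.le.trans (t.le.trans nCL))) c.ge]
  exact sup_le l inf_le_right
theorem le_cent_of (k : K3 K) (n0 : K ≤ N[⁅VL[L], E⁆]) (n : ¬ K ≤ C[⁅VL[L], E⁆]) (l : X ≤ E)
    (nX : K ≤ N[X]) (r : R2[X] ≤ C[VL[L]]) : X ≤ C[VL[L]] :=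
  (le_inf l (k.four_core (h.cW c) n0 n (l.trans le_norm_comm_right) nX
    (r.trans (cent_anti (c.WV h.af))))).trans (c.faW h.af)

theorem le_of (t : Syl 2 T L) (k : JC J[2, T] K) (l : K ≤ L) (n : ¬ K ≤ C[⁅VL[L], E⁆]) :
    K ≤ E := by
  have l1 : K ≤ J[2, L] := k.comm.ge.trans ((commutator_mono le_rfl (J_syl_le t)).trans
    (comm_le_right (l.trans le_norm_J)))
  set Y := K ⊔ J[2, T] ⊔ L ⊓ C[VL[L]] with hY
  have l2 : Y ≤ J[2, L] ⊔ L ⊓ C[VL[L]] := sup_le_sup_right (sup_le l1 (J_syl_le t)) _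
  have l3 : K ≤ Y := le_sup_left.trans le_sup_left
  have nX : Y ≤ N[Y ⊓ E] := le_norm_inf le_normalizer (l2.trans (c.norm h.af))
  have l4 : L ⊓ C[VL[L]] ≤ Y ⊓ E := le_inf le_sup_right c.ge
  have d1 : (L ⊓ C[VL[L]]).relIndex (Y ⊓ E) ∣ 6 := 
    ⟨_, (h.idx c).symm.trans (relIndex_mul_relIndex _ _ _ l4 inf_le_right).symm⟩
  obtain ⟨A, a, n1⟩ := h.exists_a c t
  have d2 : 3 ∣ (L ⊓ C[VL[L]]).relIndex (Y ⊓ E) := by
    by_contra d
    refine n1 ((inf_le_inf_right _ (a.le_J.trans (le_sup_right.trans le_sup_left))).trans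
      (h.le_cent_of c k.toK3 (le_norm_commutator (l.trans nVL) (l3.trans (l2.trans (c.norm h.af))))
        n inf_le_right (l3.trans nX) ((piRes_le_of (inf_le_right.trans (c.le.trans nCL))
          fun q hq e => ?_).trans inf_le_right)))
    rcases (Nat.Prime.dvd_mul hq).1 (e.trans d1 : q ∣ 2 * 3) with f | f
    · exact (Nat.prime_dvd_prime_iff_eq hq Nat.prime_two).1 f
    · exact (d ((Nat.prime_dvd_prime_iff_eq hq Nat.prime_three).1 f ▸ e)).elim
  obtain ⟨m, e⟩ := k.card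
  obtain ⟨j, e2⟩ := exists_card_eq_pow (t.pg.to_le (J_le (e := 2)))
  have d3 : (L ⊓ C[VL[L]]).relIndex Y ∣ 3 * 2 ^ (m + j) := by
    rw [hY, relIndex_sup_of_norm (sup_le (l.trans nCL) (J_le.trans (t.le.trans nCL))), pow_add,
      ← mul_assoc, ← e, ← e2]
    exact (relIndex_dvd_card _ _).trans (card_sup_dvd (.inr k.nJ))
  rw [← relIndex_mul_relIndex _ _ _ l4 inf_le_left] at d3
  refine (k.res.ge.trans ((piRes_mono l3).trans (piRes_le_of nX ?_))).trans inf_le_right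
  exact ((PiN.of_prime (π := {2}) Nat.prime_two rfl).pow _).of_dvd
    (Nat.dvd_of_mul_dvd_mul_left three_pos ((Nat.mul_dvd_mul_right d2 _).trans d3))

theorem facts (k : K3 K) (n0 : O2[L] ≤ N[K]) (l : K ≤ E) (n : ¬ K ≤ C[VL[L]]) (c4 : o[wOf K] ≤ 4) :
    O2[K] ≤ O2[L] ∧ ⁅VL[L], K⁆ = ⁅VL[L], E⁆ ∧ wOf K = ⁅VL[L], E⁆ := by
  have n1 : ¬ K ≤ C[⁅VL[L], E⁆] := fun e => n ((le_inf l e).trans (c.faW h.af))
  have nW : K ≤ N[⁅VL[L], E⁆] := l.trans le_norm_comm_right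
  have l1 : O2[K] ≤ O2[L] := h.le_core isPGroup_piCoreOf (le_inf (piCoreOf_le.trans (l.trans c.le))
    (h.le_cent_of c k nW n1 (piCoreOf_le.trans l) le_norm_piCoreOf
      ((piRes_eq_bot' piN_piCoreOf).le.trans bot_le)))
  have e1 := k.four_comm (h.cW c) nW n1
  have e2 : ⁅VL[L], K⁆ = ⁅VL[L], E⁆ := le_antisymm (commutator_mono le_rfl l)
    (e1.ge.trans (commutator_mono (c.WV h.af) le_rfl))
  refine ⟨l1, e2, (eq_of_le_of_card_le (e1.ge.trans (wOf_eq.ge.trans' (commutator_mono (le_OZ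
    (elem_of_le elem_OZ (c.WV h.af)) ?_ ((c.WV h.af).trans (OZ_le_cent.trans (cent_anti l1))))
      le_rfl))) (c4.trans (h.cW c).ge)).symm⟩
  exact le_pCoreOf (e2.ge.trans (comm_le_right (OZ_le.trans n0))) nW
    (isPGroup_of_card (n := 2) (h.cW c))

omit c in
theorem exists_ac (t : Syl 2 T L) (k : JC J[2, T] K) (l : K ≤ L) :
    ∃ E, AC 2 VL[L] L E ∧ K ≤ E := by
  have l1 : K ≤ J[2, L] := k.comm.ge.trans ((commutator_mono le_rfl (J_syl_le t)).trans
    (comm_le_right (l.trans le_norm_J)))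
  by_contra! n
  exact h.not_cent t k l (h.af.le_cent (l1.trans le_sup_left) fun E c =>
    by_contra fun d => n E c (h.le_of c t k l d))

end LS

/-- `O^{2'}(E)`. -/
scoped notation "U2[" E "]" => CfsgH2.piRes {2}ᶜ E
/-- The `J`-component attached to `E`. -/
scoped notation "KE[" E "]" => R2[U2[E]]

theorem le_U2 (pP : PG[2, P]) (l : P ≤ E) : P ≤ U2[E] :=
  le_piRes l (by rw [compl_compl]; exact IsPGroup.piN (π := {2}) pP rfl)

namespace LS
variable (h : LS L) (c : AC 2 VL[L] L E)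
include h c

theorem core_le_U : O2[L] ≤ U2[E] := le_U2 isPGroup_piCoreOf (core_le_CL.trans c.ge)
theorem comm_U : ⁅L ⊓ C[VL[L]], U2[E]⁆ ≤ O2[L] :=
  comm_le_of_le_stab (piRes_le_iff'.2 fun x hx o => zpowers_le.1 (le_stab
    ((zpowers_le.2 (c.le hx)).trans le_norm_piCoreOf) (h.comm_C (isPGroup_iff_piN.2
      (piN_card_zpowers (by rwa [compl_compl] at o))) (zpowers_le.2 (c.le hx)))))
theorem U_sup : U2[E] ⊔ L ⊓ C[VL[L]] = E := by
  have l : U2[E] ⊔ L ⊓ C[VL[L]] ≤ E := sup_le piRes_le c.ge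
  have e := relIndex_mul_relIndex _ _ _ (le_sup_right : _ ≤ U2[E] ⊔ L ⊓ C[VL[L]]) l
  rw [h.idx c] at e
  have n : E ≤ N[U2[E] ⊔ L ⊓ C[VL[L]]] := le_norm_sup le_norm_piRes (c.le.trans nCL)
  have i : ¬ 2 ∣ (U2[E] ⊔ L ⊓ C[VL[L]]).relIndex E := (piN_compl_singleton Nat.prime_two).1
    (piN_relIndex_of_piRes_le le_sup_left)
  have d : (U2[E] ⊔ L ⊓ C[VL[L]]).relIndex E ∣ 6 := Dvd.intro_left _ e
  refine le_antisymm l (relIndex_eq_one.1 (by_contra fun d3 => ?_))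
  have d4 : (U2[E] ⊔ L ⊓ C[VL[L]]).relIndex E = 3 := eq_three d i d3
  rw [d4] at e
  have d5 : (L ⊓ C[VL[L]]).relIndex (U2[E] ⊔ L ⊓ C[VL[L]]) = 2 := by omega
  have r : R2[U2[E] ⊔ L ⊓ C[VL[L]]] ≤ C[⁅VL[L], E⁆] := (piRes_le_of (l.trans (c.le.trans nCL))
    (by rw [d5]; exact piN_two)).trans
      (inf_le_right.trans (cent_anti (c.WV h.af)))
  have nW : E ≤ N[⁅VL[L], E⁆] := le_norm_comm_right
  have l2 := four_res (h.cW c) (comm_lt_of_piRes (isPGroup_of_card (n := 2) (h.cW c)) (l.trans nW)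
    r fun e => by have := h.cW c; rw [e, card_bot] at this; omega) (fun e => by
      rw [relIndex_eq_one.2 (le_inf (l.trans c.le) ((le_inf l (le_centralizer_iff.1
        (comm_eq_bot_iff.1 e))).trans (c.faW h.af)))] at d5; omega) nW (le_norm_commutator nW n)
  have := piN_relIndex_of_piRes_le (le_inf (piRes_le.trans c.le)
    ((le_inf piRes_le l2).trans (c.faW h.af))) 3 Nat.prime_three (by rw [h.idx c]; decide)
  simp at this

theorem U_inf : U2[E] ⊓ (L ⊓ C[VL[L]]) = O2[L] := by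
  refine le_antisymm ?_ (le_inf (h.core_le_U c) core_le_CL)
  have lU : U2[E] ≤ L := piRes_le.trans c.le
  have nU := lU.trans (le_norm_piCoreOf (π := {2}))
  have nZ : U2[E] ⊓ (L ⊓ C[VL[L]]) ≤ N[O2[L]] := inf_le_left.trans nU
  rw [← qt_eq_bot nZ]
  set Z := qt O2[L] (U2[E] ⊓ (L ⊓ C[VL[L]])) with hZ
  have l1 : Z ≤ qt O2[L] U2[E] := qt_mono inf_le_left
  have l2 : Z ≤ C[qt O2[L] U2[E]] :=
    (qt_le_cent_iff nZ nU).2 ((commutator_mono inf_le_right le_rfl).trans (h.comm_U c))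
  have o1 : PiN {2}ᶜ o[Z] := (piN_compl_singleton Nat.prime_two).2 fun d => h.odd_C (by
    rw [← card_qt (inf_le_left.trans le_norm_piCoreOf)]
    exact d.trans (card_dvd_of_le (qt_mono inf_le_right)))
  have i : Z.relIndex (qt O2[L] U2[E]) = 6 := by
    rw [hZ, relIndex_qt nU (le_inf (h.core_le_U c) core_le_CL), inf_comm, inf_relIndex_right,
      ← relIndex_sup_of_norm (lU.trans nCL), h.U_sup c, h.idx c]
  obtain ⟨H, hH, l3⟩ := exists_hall_ge (isSolvable_qt (CfsgH9.isSolvable_of_le lU h.sol)) o1 l1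
  have i2 : Z.relIndex H ∣ 3 := by
    have e := relIndex_mul_relIndex _ _ _ l3 hH.le
    have o2 : ¬ 2 ∣ Z.relIndex H := (piN_compl_singleton Nat.prime_two).1
      (hH.pi.of_dvd (relIndex_dvd_card _ _))
    exact (Nat.Coprime.dvd_mul_left ((coprime_iff_not_dvd Nat.prime_two).2 o2)).1
      ⟨_, (i.symm.trans e.symm : 2 * 3 = _)⟩
  have nH : H ≤ N[Z] := le_norm_of_le_cent (hH.le.trans (le_centralizer_iff.1 l2))
  have ab : Ab[H] := isMulComm_of_cyclic_qt nH (by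
    haveI := Fact.mk Nat.prime_three
    exact isCyclic_of_card_dvd_prime ((card_qt nH).symm ▸ i2))
    (inf_le_right.trans (l2.trans (cent_anti hH.le)))
  refine le_bot_iff.1 ((le_inf (le_inf l3 ?_) l2).trans (hH.comm_inf_cent ab).le)
  have r : piRes {2}ᶜ (qt O2[L] U2[E]) = qt O2[L] U2[E] := by rw [← qt_piRes nU, piRes_piRes]
  obtain ⟨T, t⟩ := exists_syl (p := 2) (qt O2[L] U2[E])
  refine le_of_coprime_relIndex l1 le_norm_comm_left (o1.coprime' ?_)
  have e : T ⊔ ⁅qt O2[L] U2[E], qt O2[L] U2[E]⁆ = qt O2[L] U2[E] :=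
    le_antisymm (sup_le t.le commutator_self_le) (r.ge.trans (piRes_le_of
      (le_norm_of_commutator_le le_sup_right (sup_le t.le commutator_self_le))
      ((piN_compl_singleton Nat.prime_two).2 (t.not_dvd_of_le le_sup_left))))
  have := relIndex_sup_of_norm (t.le.trans le_norm_comm_left : T ≤ N[⁅_, qt O2[L] U2[E]⁆])
  rw [e] at this
  rw [this]
  exact (IsPGroup.piN (π := {2}) t.pg rfl).of_dvd (relIndex_dvd_card _ _)

theorem idx_U : O2[L].relIndex U2[E] = 6 := by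
  rw [← h.U_inf c, inf_comm, inf_relIndex_right, ← relIndex_sup_of_norm
    ((piRes_le.trans c.le).trans nCL), h.U_sup c, h.idx c]
theorem idx_K : O2[L].relIndex KE[E] = 3 := by
  have nU := (piRes_le.trans c.le : U2[E] ≤ L).trans (le_norm_piCoreOf (π := {2}))
  have c6 := (card_qt nU).trans (h.idx_U c)
  obtain ⟨D, l, c3⟩ := exists_card_prime_le Nat.prime_three (c6 ▸ by decide : 3 ∣ o[qt O2[L] U2[E]])
  have i : D.relIndex (qt O2[L] U2[E]) = 2 := by
    have := card_mul_relIndex l; rw [c3] at this; omega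
  have n : qt O2[L] U2[E] ≤ N[D] :=
    (normal_subgroupOf_iff' l).1 (normal_of_index_eq_two i)
  have l2 := card_dvd_of_le (piRes_le_of n (by rw [i]; exact piN_two))
  rw [← qt_piRes nU, card_qt (piRes_le.trans nU), c3] at l2
  refine ((Nat.dvd_prime Nat.prime_three).1 l2).resolve_left fun e => ?_
  have := piN_relIndex_of_piRes_le (relIndex_eq_one.1 e) 3 Nat.prime_three
    (by rw [h.idx_U c]; decide)
  simp at this
omit h in
theorem KE_le : KE[E] ≤ E := piRes_le.trans piRes_le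
omit h c in
theorem norm_le_norm_KE : N[E] ≤ N[KE[E]] := norm_le_norm_piRes.trans norm_le_norm_piRes
theorem norm_KE : J[2, L] ⊔ L ⊓ C[VL[L]] ≤ N[KE[E]] := (c.norm h.af).trans norm_le_norm_KE
theorem k3 : K3 KE[E] := by
  refine ⟨piRes_piRes, ((Nat.dvd_prime Nat.prime_three).1 ?_).resolve_left fun e => ?_⟩
  · rw [← h.idx_K c, ← inf_relIndex_right O2[L]]
    exact relIndex_dvd_of_le_left _ (inf_piCoreOf_le ((KE_le c).trans c.le))
  · have := h.idx_K c
    rw [← piRes_piRes, piRes_eq_bot' (piN_of_le piN_piCoreOf (relIndex_eq_one.1 e)),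
      relIndex_bot_right] at this
    omega
theorem KE_not_cent : ¬ KE[E] ≤ C[VL[L]] := fun l => by
  have := h.idx_K c
  rw [relIndex_eq_one.2 ((le_inf piRes_le (le_inf ((KE_le c).trans c.le) l)).trans
    (h.U_inf c).le)] at this
  omega
theorem core_KE : O2[KE[E]] ≤ O2[L] :=
  (piCoreOf_le_of_norm ((KE_le c).trans (c.leJ h.af)) (h.norm_KE c)).trans
    (piCoreOf_le_of_norm (sup_le J_le inf_le_left) (le_norm_sup le_norm_J nCL))
theorem jc (t : Syl 2 T L) : JC J[2, T] KE[E] := by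
  obtain ⟨A, a, n⟩ := h.exists_a c t
  have k := h.k3 c
  have nJ : J[2, T] ≤ N[KE[E]] := (J_syl_le t).trans (le_sup_left.trans (h.norm_KE c))
  have n2 : ¬ ⁅KE[E], A⁆ ≤ O2[KE[E]] := fun l => by
    have l2 : A ⊓ E ⊔ O2[L] ≤ T := sup_le (inf_le_left.trans a.le) t.pCoreOf_le
    refine n (le_sup_left.trans (h.le_cent_of c k ((KE_le c).trans le_norm_comm_right)
      (fun e => h.KE_not_cent c ((le_inf (KE_le c) e).trans (c.faW h.af)))
      (sup_le inf_le_right (core_le_CL.trans c.ge)) (le_norm_of_comm_le (comm_sup_le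
        (l2.trans' le_sup_left |>.trans (t.le.trans le_norm_piCoreOf)) le_normalizer ?_
        (comm_le_left (((KE_le c).trans c.le).trans le_norm_piCoreOf))) le_sup_right)
      ((piRes_eq_bot' (IsPGroup.piN (π := {2}) (t.pg.to_le l2) rfl)).le.trans bot_le)))
    exact (commutator_comm _ _).le.trans ((commutator_mono le_rfl inf_le_left).trans
      (l.trans (h.core_KE c)))
  have c4 := k.card_wOf_le a ((h.core_KE c).trans t.pCoreOf_le) (a.le_J.trans nJ) n2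
  exact ⟨k, k.comm_eq nJ fun l => n2 ((commutator_mono le_rfl a.le_J).trans l), fun S s l =>
    J_eq_of_syl t s.pg (s.le.trans (sup_le ((KE_le c).trans c.le) (J_le.trans t.le))) l, by
      rw [(h.facts c k (core_le_CL.trans (le_sup_right.trans (h.norm_KE c))) (KE_le c)
        (h.KE_not_cent c) c4).2.2, h.cW c]⟩
theorem eq_KE (t : Syl 2 T L) (k : JC J[2, T] K) (l : K ≤ E) : K = KE[E] := by
  have nJ : J[2, T] ≤ N[U2[E]] :=
    (J_syl_le t).trans (le_sup_left.trans ((c.norm h.af).trans norm_le_norm_piRes))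
  have l1 : K ≤ U2[E] := k.comm.ge.trans ((commutator_mono (l.trans (h.U_sup c).ge) le_rfl).trans
    (comm_sup_le le_normalizer (c.ge.trans le_norm_piRes) (comm_le_left nJ)
      ((h.comm_C (t.pg.to_le J_le) (J_le.trans t.le)).trans (h.core_le_U c))))
  have l2 : K ≤ KE[E] := k.res.ge.trans (piRes_mono l1)
  have k2 := h.k3 c
  refine le_antisymm l2 (k2.le_of_sup isPGroup_piCoreOf ((h.core_KE c).trans
    (h.core_le_norm t k (l.trans c.le))) ((k2.sup_eq l2 fun e => k.not_pg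
      (isPGroup_piCoreOf.to_le e)).ge.trans (sup_comm _ _).le))
end LS

namespace LS
variable (h : LS L) (t : Syl 2 T L)
include h t

theorem gen (h1 : ∀ K, JC J[2, T] K → K ≤ L → K ≤ X) (h2 : L ⊓ N[J[2, T]] ≤ X) : L ≤ X := by
  have l0 : J[2, L] ⊔ L ⊓ C[VL[L]] ≤ L := sup_le J_le inf_le_left
  have n0 : L ≤ N[J[2, L] ⊔ L ⊓ C[VL[L]]] := le_norm_sup le_norm_J nCL
  have l1 : L ⊓ C[VL[L]] ≤ X := (le_inf inf_le_left (h.C_le_norm_J t)).trans h2
  have l2 : J[2, L] ≤ X ⊓ L := h.af.gen (le_inf l1 inf_le_left) inf_le_right fun E c => by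
    refine le_inf ((h.U_sup c).ge.trans (sup_le ?_ l1)) c.le
    have s := (t.inf_norm l0 (t.le.trans n0)).inf_norm (piRes_le.trans (c.leJ h.af) : U2[E] ≤ _)
      (inf_le_right.trans ((c.norm h.af).trans norm_le_norm_piRes))
    exact s.piRes_sup.ge.trans (sup_le (h1 _ (h.jc c t) ((KE_le c).trans c.le))
      ((inf_le_left.trans inf_le_left).trans ((le_inf t.le le_norm_J).trans h2)))
  intro g hg
  obtain ⟨c, hc, n, hn, rfl⟩ := frattini_J t l0 n0 ((J_syl_le t).trans le_sup_left) hg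
  exact mul_mem (sup_le (l2.trans inf_le_left) l1 hc)
    (h2 ⟨(mul_mem_cancel_left (l0 hc)).1 hg, hn⟩)
theorem exists_jc (n : ¬ J[2, T] ≤ O2[L]) : ∃ K, JC J[2, T] K ∧ K ≤ L := by
  by_contra! c
  exact n (le_pCoreOf (J_le.trans t.le) (h.gen t (fun K k l => (c K k l).elim) inf_le_right)
    (t.pg.to_le J_le))

variable (k : JC J[2, T] K) (l : K ≤ L)
include k l

theorem ex : ∃ E, AC 2 VL[L] L E ∧ K = KE[E] ∧ O2[K] ≤ O2[L] ∧ ⁅VL[L], K⁆ = ⁅VL[L], E⁆ ∧
    wOf K = ⁅VL[L], E⁆ := by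
  obtain ⟨E, c, l2⟩ := h.exists_ac t k l
  exact ⟨E, c, h.eq_KE c t k l2, h.facts c k.toK3 (h.core_le_norm t k l) l2 (h.not_cent t k l)
    k.cW.le⟩
theorem core_le : O2[K] ≤ O2[L] := by
  obtain ⟨E, -, -, e, -⟩ := h.ex t k l; exact e
theorem wOf_eq : wOf K = ⁅VL[L], K⁆ := by
  obtain ⟨E, -, -, -, e, e2⟩ := h.ex t k l; rw [e, e2]
theorem wOf_le : wOf K ≤ VL[L] := (h.wOf_eq t k l).le.trans (comm_le_left (l.trans nVL))
theorem norm : J[2, L] ⊔ L ⊓ C[VL[L]] ≤ N[K] := by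
  obtain ⟨E, c, rfl, -⟩ := h.ex t k l; exact h.norm_KE c
omit h in
theorem leJ : K ≤ J[2, L] := k.comm.ge.trans ((commutator_mono le_rfl (J_syl_le t)).trans
    (comm_le_right (l.trans le_norm_J)))
theorem sn : CfsgH9.Sn K L :=
  (CfsgH9.Sn.of_normal (leJ t k l) (le_sup_left.trans (h.norm t k l))).trans
    (.of_normal J_le le_norm_J)
theorem map_cj {g : G} (hg : g ∈ L) : JC J[2, T] (K.map (cj g)) := by
  obtain ⟨E, c, rfl, -⟩ := h.ex t k l
  rw [← piRes_map_cj, ← piRes_map_cj]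
  exact h.jc (c.map_cj h.af (nVL hg) (le_normalizer hg)) t
theorem of_syl (s : Syl 2 S L) : JC J[2, S] K := by
  obtain ⟨E, c, rfl, -⟩ := h.ex t k l
  exact h.jc c s
theorem dich (d : JC J[2, T] D) (l2 : D ≤ L) : K = D ∨ D ≤ C[wOf K] := by
  obtain ⟨E, c, rfl, -, -, e⟩ := h.ex t k l
  obtain ⟨F, c2, rfl, -⟩ := h.ex t d l2
  rcases c.dich h.af c2 with rfl | e2
  exacts [.inl rfl, .inr (e ▸ (KE_le c2).trans e2.1)]
theorem eq_of_W (d : JC J[2, T] D) (l2 : D ≤ L) (n : wOf K ⊓ wOf D ≠ ⊥) : K = D :=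
  (h.dich t k l d l2).resolve_right fun e => n (le_bot_iff.1 (((inf_comm _ _).le.trans
    (inf_le_inf_left _ (le_centralizer_iff.1 e))).trans d.wOf_facts.2.le))
theorem mem_norm {g : G} (hg : g ∈ L) (n : wOf K ⊓ (wOf K).map (cj g) ≠ ⊥) : g ∈ N[K] :=
  map_cj_eq_iff.1 (h.eq_of_W t k l (h.map_cj t k l hg) (map_cj_le_of_mem l hg)
    (by rwa [wOf_map_cj])).symm
theorem le_norm (n : L ≤ N[wOf K]) : L ≤ N[K] := fun g hg => h.mem_norm t k l hg (by
  rw [map_cj_eq (n hg), inf_idem]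
  exact fun e => by have := k.cW; rw [e, card_bot] at this; omega)
theorem T_le_norm (n : Z[T] ⊓ wOf K ≠ ⊥) : T ≤ N[K] := fun g hg => h.mem_norm t k l (t.le hg)
  fun e => n (le_bot_iff.1 (e ▸ le_inf inf_le_right (le_map_cj_iff.2 (by
    rw [map_cj_eq (cent_le_norm _ (inv_mem (le_centralizer_iff.1
      (inf_le_left.trans inf_le_right) hg)))]; exact inf_le_right))))
theorem V_sup : wOf K ⊔ VL[L] ⊓ C[K] = VL[L] := by
  obtain ⟨E, c, rfl, -, -, e⟩ := h.ex t k l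
  refine le_antisymm (sup_le (h.wOf_le t k l) inf_le_left) ((c.W_sup h.af).ge.trans ?_)
  exact sup_le_sup e.ge (inf_le_inf_left _ (cent_anti (KE_le c)))

end LS

end CfsgH2
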